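import Cfsg.Agent.H583.R2.Aut
import Cfsg.Agent.H19.R2.Om
import Cfsg.Agent.H776.CY.Congr

/-!
# S4829, `Row2`, `PΩ⁺_{2m}(q)`, `q` even, `m ≥ 4` (helper583)

The character is helper19's `omega_ratInv`.
-/

set_option autoImplicit false

open Cfsg Module QuadraticMap

namespace Cfsg.Agent.H583.R2

open Cfsg.Agent.LieClassical Cfsg.Agent.LieClassical.OrthCore Cfsg.Agent.LieClassical.OrthTrans
  Cfsg.Agent.LieClassical.OrthFinite Cfsg.Agent.ClassicalGeometry.OrthSemi Cfsg.Agent.ClassicalGeometry.OrthSemiForms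
  Cfsg.Agent.H987.BR Cfsg.Agent.H674.BR Cfsg.Agent.H410.BR Cfsg.Agent.H226.R2 Cfsg.Agent.H770.CY
  Cfsg.Agent.H477.HC Cfsg.Agent.H636.Gow Cfsg.Agent.H328.Gow

theorem row2_aux {F : Type} [Field F] [Fintype F] {m : ℕ} (hm : 4 ≤ m) {q : (Fin m ⊕ Fin m → F) → F}
    (hq : ⇑(OrthForms.plusForm m F) = q)
    (h : ∃ η : POmega F q → ℂ, IsIrrCharacter (POmega F q) η ∧ η ≠ 1 ∧ (∃ d : ℕ, Odd d ∧ η 1 = d) ∧
      (∀ g, ∃ r : ℚ, η g = r) ∧ ∀ α : MulAut (POmega F q), H19.R2.SemiInd q α → ∀ x, η (α x) = η x) :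
    Row2 (POmega F q) := by
  subst hq
  have hG : Good (OrthForms.plusForm m F) := good_plus hm
  have hf : Finite (Cfsg.POmega F ⇑(OrthForms.plusForm m F)) := by
    have : Finite (Cfsg.isometryGroup F ⇑(OrthForms.plusForm m F)) := inferInstance
    exact Finite.of_surjective _ (QuotientGroup.mk'_surjective _)
  obtain ⟨η, h1, h2, h3, h4, h6⟩ := h
  exact row2_of_odd_index (Γ := GamGrp hG) (odd_index_plus hm hG)
    ⟨η, h1, h2, h3, h4, fun a ha => h6 a (H19.R2.semiInd_of_gamAct hG (gamAct_of_mem hG ha))⟩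

/-- **`PΩ⁺_{2m}(q)`, `q` even, `m ≥ 4`, all automorphisms (graph, field, triality)** -/
theorem row2_oplus (F : Type) [Field F] [Fintype F] [CharP F 2] (m : ℕ) (hm : 4 ≤ m) :
    Row2 (POmega F (quadFormPlus m F)) := by
  refine row2_aux hm (OrthForms.coe_plusForm m F) ?_
  obtain ⟨n, rfl⟩ : ∃ n, m = 3 + n := ⟨m - 3, by omega⟩
  obtain ⟨⟨W, hW⟩, -⟩ := CForm.plusF_frame (K := F) (p := 2) 3 n
  exact H19.R2.omega_inv (CForm.plusF F (3 + n)) (plus_hB F (3 + n)) rfl rfl (fun t ht => ht)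
    (by simp only [Fintype.card_sum, Fintype.card_fin]; omega) hW (plus_idx F hm)
    (fun z hz => cen_plus F (by omega) z hz)

/-- the family -/
theorem row2_oplus_family : RowFor2 (fun X _ => ∃ (F : Type) (_ : Field F) (_ : Fintype F) (_ : CharP F 2) (m : ℕ),
    4 ≤ m ∧ Nonempty (X ≃* POmega F (quadFormPlus m F))) := by
  intro X _ _ _ _ h
  obtain ⟨F, iF, iN, iC, m, hm, ⟨e⟩⟩ := h
  exact H776.CY.Row2.congr e (row2_oplus F m hm)

end Cfsg.Agent.H583.R2
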